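import Cfsg.Agent.H6.Cert

set_option autoImplicit false
set_option maxRecDepth 100000
set_option Elab.async false

namespace Cfsg.H6.L16.C4

noncomputable def get (y : ℕ) : ℕ := (sel (nat_lit 1) y (nat_lit 0xb0000000000000a000000000000090000000000000800000000000007000000000000060000000000000000000000000000000000000000) (nat_lit 0x300000100000102000001000001040000010000010400000100000101000001000001010000010000010500000000000105000001000000040000000000000400000000000003000000000000020000000000000100000000000001000000000000))
noncomputable def gs (y : ℕ) : ℕ := (sel (nat_lit 2) y (sel (nat_lit 1) y (nat_lit 0x0) (nat_lit 0x0)) (sel (nat_lit 3) y (nat_lit 0x0) (sel (nat_lit 4) y (nat_lit 0x0) (nat_lit 0x80000078000007800000780000078000007800000780000078000007800000780000078000007800000780000078000007800000780000078000007800000780000078000007800000780000078000007800000780000078000006000020600002020000202000020200002020000207800000500002060000205000020780000040000206000020100002078000000800000300001068000002000010480000010000102))))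
noncomputable def gd (_y : ℕ) : ℕ := (nat_lit 0x2060000000)
noncomputable def gwh (y : ℕ) : ℕ := (sel (nat_lit 3) y (sel (nat_lit 1) y (nat_lit 0x601000001001000) (sel (nat_lit 2) y (nat_lit 0x803000001001001) (nat_lit 0xa04000001001002))) (sel (nat_lit 5) y (sel (nat_lit 4) y (nat_lit 0x5010501000004000003) (nat_lit 0x5040504000004000004)) (sel (nat_lit 6) y (nat_lit 0x5020202020503000006001005) (nat_lit 0x6))))
noncomputable def gc (y : ℕ) : ℕ := (sel (nat_lit 2) y (sel (nat_lit 1) y (nat_lit 0x2080000200) (nat_lit 0x20c0000202)) (sel (nat_lit 3) y (nat_lit 0x20d0000203) (sel (nat_lit 4) y (nat_lit 0x20a0000204) (nat_lit 0x2070000206))))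

theorem b0 : allR (blk get gs (gwB gwh 7) gd 3108186227616092632553554176) 4 1 = true := by decide +kernel

theorem c0 : allR (clo get gc 2 576 1) 0 5 = true := by decide +kernel

def sg : List (List ℕ) := [[], [1], [2], [3], [4], [5], [1], [1], [2], [3], [4], [4]]

def BL : List ℕ := [0x106, 0x308, 0x40a, 0x5010501, 0x5040504, 0x2020202050305, 0x0]

def R : List (List ℕ) := [[2,2,2,2,2,2,2,2,2,2,2,2,2,2,2], [4,2,4,2], [4,1,4,1,4,1], [1,2,1,3,1,2,1,3], [1,2,2,1,3,3,1,2,2,1,3,3], [2,2,2,2,1,3,3,3,3,1,2,1,3], [5,1,5,1], [5,4,5,4], [5,2,5,3,3,3,3]]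

def Sub : List (List ℕ) := [[1], [2], [4]]

theorem hA : prepA 5514771759360 R sg 3108186227616092632553554176 BL Sub get gd = true := by decide +kernel

theorem hw : allR (okW BL gwh) 0 7 = true := by decide +kernel

theorem hb : ∀ b, 4 ≤ b → b < 5 → blk get gs (gwB gwh 7) gd 3108186227616092632553554176 b = true :=
  (allR_range b0 (by norm_num : 4 + 1 = 5))

def X : List (List ℕ) := [[1], [2], [4], [5]]

theorem hC : prepC sg 3108186227616092632553554176 X 5 2 1 = true := by decide +kernel

theorem hc : ∀ t, 0 ≤ t → t < 5 * 1 → clo get gc 2 576 1 t = true :=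
  (allR_range c0 (by norm_num : 0 + 5 = 5))

theorem cover {G : Type*} [Group G] {ev : ℕ → G} (hev : Good ev 5514771759360) (hR : Rels ev R) :
    Cover (gen ev Sub) (gen ev X) 2 :=
  cert_cover hev hR hA hC hw hb (by norm_num) hc


end Cfsg.H6.L16.C4
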